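import Mathlib
import Cfsg.Agent.FUS.MulSys
import Cfsg.Agent.FUS.GroupNormal

/-!
# Normal subsystems of the fusion system of a group of characteristic `p`
-/

set_option autoImplicit false

namespace CL.Fus
open Cfsg Cfsg.FusionSystem

variable {G : Type*} [Group G] {p : ℕ} {T P A B : Subgroup G}

theorem iterate_cj (g : G) (n : ℕ) (x : G) : (cj g)^[n] x = cj (g ^ n) x := by
  induction n with
  | zero => rw [pow_zero, cj_one]; rfl
  | succ n ih => rw [Function.iterate_succ_apply', ih, pow_succ', cj_mul]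

theorem copOn_cj {g : G} (h : (orderOf g).Coprime p) (P : Subgroup G) : CopOn p P (cj g) :=
  ⟨_, h, fun x _ => by rw [iterate_cj, pow_orderOf_eq_one, cj_one]⟩

theorem cj_maps_sup {g : G} (hA : ∀ x ∈ A, cj g x ∈ A) (hB : ∀ x ∈ B, cj g x ∈ B) :
    ∀ x ∈ A ⊔ B, cj g x ∈ A ⊔ B :=
  (sup_le (fun x hx => Subgroup.mem_sup_left (hA x hx)) (fun x hx => Subgroup.mem_sup_right (hB x hx)) :
    A ⊔ B ≤ (A ⊔ B).comap (MulAut.conj g).toMonoidHom)

theorem cj_mem_normal (A : Subgroup G) [h : A.Normal] (g : G) : ∀ x ∈ A, cj g x ∈ A :=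
  fun x hx => h.conj_mem x hx g

variable [Finite G] [Fact p.Prime]

theorem exists_coprime_cj_of_copOn {H : Subgroup G} {hTH : T ≤ H} {f : G → G}
    (hf : Mor (fusionSystemOfSubgroup H T hTH) P f) (hm : ∀ x ∈ P, f x ∈ P) (hc : CopOn p P f) :
    ∃ g ∈ H, (orderOf g).Coprime p ∧ Set.EqOn f (cj g) P := by
  have e := hf.autFun_equiv (hf.img_eq_self hm)
  have h1 := hf.equiv_mem_autGroup (hf.img_eq_self hm)
  rw [autGroup_ofSubgroup hf.le] at h1
  obtain ⟨g, hg, h2, h3⟩ := exists_coprime_cjAut (Fact.out : p.Prime) h1 (hc.orderOf_coprime e)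
  exact ⟨g, hg, h2, e.symm.trans h3⟩

/-- The elements of `G` that act on `O_p(G)` like morphisms of `E`. -/
def wOkSub (p : ℕ) (E : FusionSystem T) : Subgroup G where
  carrier := {g | WOk E (pCore p G) (cj g)}
  one_mem' := (WOk.id E _).congr fun x _ => (cj_one x).symm
  mul_mem' := fun {a b} ha hb =>
    (WOk.comp ha hb (cj_mem_normal _ b)).congr fun x _ => (cj_mul a b x).symm
  inv_mem' := fun {a} ha => by
    obtain ⟨n, hn⟩ := (isOfFinOrder_of_finite a).mem_powers_iff_mem_zpowers.2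
      (Subgroup.inv_mem _ (Subgroup.mem_zpowers a))
    exact (WOk.iterate ha (cj_mem_normal _ a) n).congr fun x _ => by rw [iterate_cj, ← hn]

variable {S : Sylow p G} {E : FusionSystem T}

omit [Fact p.Prime] in
theorem wOkSub_normal (hE : E.IsInvariantIn (groupFusionSystem (S : Subgroup G))) :
    (wOkSub p E).Normal := ⟨fun g hg a => by
  have hQ := pCore_le_sylow S
  have := WOk.conj hE hg (mor_cj_group hQ fun x hx => hQ (cj_mem_normal _ a x hx)) le_rfl
    (cj_mem_normal _ g) (c := cj (a * g * a⁻¹)) fun x _ => by rw [cj_mul, cj_inv_cj, cj_mul]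
  rwa [mem_normalizer_iff_img_cj.1 (Subgroup.le_normalizer_of_normal (Subgroup.mem_top a))] at this⟩

omit [Finite G] [Fact p.Prime] in
theorem normal_pCore_inf (hT : (groupFusionSystem (S : Subgroup G)).StronglyClosed T) :
    (pCore p G ⊓ T).Normal := ⟨fun x hx g => ⟨cj_mem_normal _ g x hx.1,
  (stronglyClosed_group_iff.1 hT).2 x hx.2 g (pCore_le_sylow S (cj_mem_normal _ g x hx.1))⟩⟩

variable (hG : Subgroup.centralizer ((pCore p G : Subgroup G) : Set G) ≤ pCore p G)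
  (hE : E.IsWeaklyNormalIn (groupFusionSystem (S : Subgroup G)) p)
include hG hE

theorem wOkSub_inf_centralizer_le :
    wOkSub p E ⊓ Subgroup.centralizer ((pCore p G ⊓ T : Subgroup G) : Set G) ≤ pCore p G := by
  have := wOkSub_normal hE.2.2
  have := normal_pCore_inf hE.2.2.2.1
  refine le_pCore fun g => ?_
  obtain ⟨k, hk⟩ := exists_pow_mem_Oup (p := p) g.2
  refine ⟨k, Subtype.ext (Subgroup.mem_bot.1 (Oup_le_iff.2 (fun a ha hc => ?_) hk))⟩
  have h1 : a ∈ pCore p G := hG (mem_centralizer_iff_cj.2 fun x hx =>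
    (copOn_cj hc _).eq_of_trivMod isPGroup_pCore (isHomOn_cj _ a) (cj_mem_normal _ a)
      (fun y hy hy' => cj_eq_of_mem_centralizer ha.2 ⟨hy, hy'⟩) hx (ha.1.1 x hx))
  exact (Oup_eq_bot isPGroup_pCore).le (mem_Oup h1 hc)

theorem inv_mul_cj_mem_pCore {g c : G} (hg : g ∈ wOkSub p E)
    (hc : c ∈ Subgroup.centralizer ((pCore p G ⊓ T : Subgroup G) : Set G)) :
    c⁻¹ * cj g c ∈ pCore p G := by
  have h1 := wOkSub_normal hE.2.2
  have := normal_pCore_inf hE.2.2.2.1
  refine wOkSub_inf_centralizer_le hG hE ⟨?_, Subgroup.mul_mem _ (Subgroup.inv_mem _ hc)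
    (cj_mem_normal _ g c hc)⟩
  have := Subgroup.mul_mem _ (h1.conj_mem g hg c⁻¹) (Subgroup.inv_mem _ hg)
  rwa [inv_inv, mul_assoc, mul_assoc, ← mul_assoc g] at this

theorem cj_maps_of_mem_wOkSub {g : G} (hg : g ∈ wOkSub p E) :
    ∀ x ∈ pCore p G ⊓ T ⊔ centralizerIn S (pCore p G ⊓ T),
      cj g x ∈ pCore p G ⊓ T ⊔ centralizerIn S (pCore p G ⊓ T) := by
  have := normal_pCore_inf hE.2.2.2.1
  refine cj_maps_sup (cj_mem_normal _ g) fun c hc => ⟨?_, cj_mem_normal _ g c hc.2⟩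
  have := Subgroup.mul_mem _ hc.1 (pCore_le_sylow S (inv_mul_cj_mem_pCore hG hE hg hc.2))
  rwa [mul_inv_cancel_left] at this

theorem wOk_sup_centralizerIn {g : G} (hg : g ∈ wOkSub p E) (hc : (orderOf g).Coprime p) :
    WOk E (pCore p G ⊓ T ⊔ centralizerIn S (pCore p G ⊓ T)) (cj g) := by
  have hT := hE.2.2.2.1
  have := normal_pCore_inf hT
  have hV : pCore p G ⊓ T ⊔ centralizerIn S (pCore p G ⊓ T) ≤ S :=
    sup_le (inf_le_right.trans hT.1) (centralizerIn_le _ _)
  refine ⟨((copOn_cj hc _).trivMod (isPGroup_of_le S.isPGroup' hV) (isHomOn_cj _ g)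
    (cj_maps_of_mem_wOkSub hG hE hg) (A := pCore p G ⊓ T) inf_le_left
    ((hg.1.inf_self (cj_mem_normal _ g) le_rfl).mono inf_le_right) ?_).mono_left inf_le_right,
    hg.2.mono (sup_centralizerIn_inf_le (inf_le_right.trans hT.1) inf_le_right le_rfl ?_)⟩
  · exact TrivMod.sup (isHomOn_cj _ g) (le_top.trans Subgroup.le_normalizer_of_normal)
      (TrivMod.of_le inf_le_left fun x hx => cj_mem_normal _ g x hx.1)
      fun c hc => inv_mul_cj_mem_pCore hG hE hg hc.2
  · have := centralizerIn_core_inf_le S.isPGroup' (isConstrained_group S hG) hT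
    rwa [core_group_constrained S hG] at this

theorem sylow_inf_Oup_wOkSub_le : (S : Subgroup G) ⊓ Oup p (wOkSub p E) ≤ T := by
  have hT := hE.2.2.2.1
  have := wOkSub_normal hE.2.2
  have := normal_pCore_inf hT
  have hM : SylIn p (S ⊓ wOkSub p E) (wOkSub p E) :=
    (sylIn_top S).inf_normal le_top Subgroup.le_normalizer_of_normal
  have hU : pCore p G ⊓ T ≤ S := inf_le_right.trans hT.1
  refine le_trans (fun x hx => ?_) ((hyperfocal_ofSubgroup (hTH := hM.le) hM).ge.trans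
    (hyperfocal_le_iff_coprime.2 fun P hP α hα hc x hx => ?_))
  · exact ⟨⟨hx.1, Oup_le _ _ hx.2⟩, hx.2⟩
  rw [autGroup_ofSubgroup hP] at hα
  obtain ⟨g, hg, h2, h3⟩ := exists_coprime_cjAut (Fact.out : p.Prime) hα hc
  have hPS := hP.trans inf_le_left
  have hm := cj_maps_sup (fun y hy => h3 hy ▸ autFun_mem α hy) (cj_maps_of_mem_wOkSub hG hE hg)
  have hle : P ⊔ (pCore p G ⊓ T ⊔ centralizerIn S (pCore p G ⊓ T)) ≤ S :=
    sup_le hPS (sup_le hU (centralizerIn_le _ _))
  rw [h3 hx]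
  exact WOk.foc S.isPGroup' hE (fullyNormalized_of_normal _ hU
    (le_top.trans Subgroup.le_normalizer_of_normal)) inf_le_right
    ⟨hPS hx, Subgroup.le_normalizer_of_normal (Subgroup.mem_top x)⟩ (hP hx).2.2
    (mor_cj_group hle fun y hy => hle (hm y hy)) le_sup_right (Subgroup.mem_sup_left hx)
    (wOk_sup_centralizerIn hG hE hg h2).1

omit hG [Fact p.Prime] in
theorem le_wOkSub : T ≤ wOkSub p E := fun _ ht => WOk.cj hE.2.2.2.1 (pCore_le_sylow S) ht

omit hG in
theorem normal_Oup_wOkSub_sup : (Oup p (wOkSub p E) ⊔ T).Normal := by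
  have hT := hE.2.2.2.1
  have := wOkSub_normal hE.2.2
  have hM : SylIn p (S ⊓ wOkSub p E) (wOkSub p E) :=
    (sylIn_top S).inf_normal le_top Subgroup.le_normalizer_of_normal
  have hO : ∀ g : G, g ∈ Subgroup.normalizer (Oup p (wOkSub p E) : Set G) := fun g =>
    normalizer_le_normalizer_Oup p _ (Subgroup.le_normalizer_of_normal (Subgroup.mem_top g))
  have key : ∀ n ∈ Subgroup.normalizer ((S ⊓ wOkSub p E : Subgroup G) : Set G),
      n ∈ Subgroup.normalizer ((Oup p (wOkSub p E) ⊔ T : Subgroup G) : Set G) := fun n hn =>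
    mem_normalizer_of_cj_mem (cj_maps_sup (fun x hx => cj_mem_of_mem_normalizer (hO n) hx)
      fun x hx => (stronglyClosed_group_iff.1 hT).2 x hx n
        (cj_mem_of_mem_normalizer hn ⟨hT.1 hx, le_wOkSub hE hx⟩).1)
  refine Subgroup.normalizer_eq_top_iff.1 (eq_top_iff.2 fun g _ => ?_)
  obtain ⟨c, hc, h1⟩ := hM.frattini (Subgroup.le_normalizer_of_normal (Subgroup.mem_top g))
  obtain ⟨t, ht, x, hx, rfl⟩ := hM.exists_mul_Oup hc
  have := Subgroup.mul_mem _ (Subgroup.inv_mem _ (Subgroup.mul_mem _ (key t (Subgroup.le_normalizer ht))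
    (Subgroup.le_normalizer (Subgroup.mem_sup_left hx)))) (key _ h1)
  rwa [inv_mul_cancel_left] at this

theorem eq_sylow_inf_Oup_wOkSub_sup : T = (S : Subgroup G) ⊓ (Oup p (wOkSub p E) ⊔ T) := by
  have hT := hE.2.2.2.1
  refine le_antisymm (le_inf hT.1 le_sup_right) fun x hx => ?_
  obtain ⟨a, ha, t, ht, rfl⟩ := exists_mul_of_mem_sup_right
    ((le_wOkSub hE).trans (le_normalizer_Oup p _)) hx.2
  exact T.mul_mem (sylow_inf_Oup_wOkSub_le hG hE
    ⟨(Subgroup.mul_mem_cancel_right _ (hT.1 ht)).1 hx.1, ha⟩) ht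

theorem ofSubgroup_wOkSub_isSubsystemOf :
    (fusionSystemOfSubgroup (Oup p (wOkSub p E) ⊔ T) T le_sup_right).IsSubsystemOf E := by
  have hT := hE.2.2.2.1
  have := normal_pCore_inf hT
  have := normal_Oup_wOkSub_sup hE
  have hU : pCore p G ⊓ T ≤ S := inf_le_right.trans hT.1
  refine isSubsystemOf_of_weaklyNormal_of_coprime S.isPGroup'
    (isNormalIn_group (sylIn_top S) (eq_sylow_inf_Oup_wOkSub_sup hG hE)).1 hE.2.2 fun f hf hc => ?_
  obtain ⟨g, hg, h2, h3⟩ := exists_coprime_cj_of_copOn hf (fun x hx => hf.map_mem hx) hc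
  have hgM := sup_le (Oup_le _ _) (le_wOkSub hE) hg
  have hm : ∀ x ∈ T, cj g x ∈ T := fun x hx => h3 hx ▸ hf.map_mem hx
  have hmV := cj_maps_of_mem_wOkSub hG hE hgM
  have hle : pCore p G ⊓ T ⊔ centralizerIn S (pCore p G ⊓ T) ⊔ T ≤ S :=
    sup_le (sup_le hU (centralizerIn_le _ _)) hT.1
  have := WOk.climb S.isPGroup' hE (fullyCentralized_of_fullyNormalized S.isPGroup' hE.2.1
    (fullyNormalized_of_normal _ hU (le_top.trans Subgroup.le_normalizer_of_normal))) inf_le_right le_rfl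
    (X := T) (fun t ht => ⟨hT.1 ht, normalizerIn_le_normalizer_sup_centralizerIn _ _
      ⟨hT.1 ht, Subgroup.le_normalizer_of_normal (Subgroup.mem_top t)⟩⟩)
    (mor_cj_group hle fun y hy => hle (cj_maps_sup hmV hm y hy)) hmV hm (copOn_cj h2 _)
    (wOk_sup_centralizerIn hG hE hgM h2)
  exact (this.2.mono (le_inf le_sup_right le_rfl)).congr h3.symm

omit hE in
theorem isSubsystemOf_ofSubgroup_wOkSub (hE : E.IsNormalIn (groupFusionSystem (S : Subgroup G)) p) :
    E.IsSubsystemOf (fusionSystemOfSubgroup (Oup p (wOkSub p E) ⊔ T) T le_sup_right) := by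
  have hT := hE.1.2.2.2.1
  have := normal_Oup_wOkSub_sup hE.1
  have hQ := pCore_le_sylow S
  have hfc := fullyCentralized_of_fullyNormalized S.isPGroup' hE.1.2.1
    (fullyNormalized_of_normal _ hT.1 (sc_le_normalizer hT))
  refine isSubsystemOf_of_weaklyNormal_of_coprime S.isPGroup' hE.1
    (isNormalIn_group (sylIn_top S) (eq_sylow_inf_Oup_wOkSub_sup hG hE.1)).1.2.2 fun f hf hc => ?_
  obtain ⟨b, hb, e, cb, tb⟩ := exists_ext_centric S.isPGroup' hE (relCentric_top hT) hfc hf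
    (fun x hx => hf.map_mem hx) hc
  have hmb : ∀ x ∈ T ⊔ centralizerIn S T, b x ∈ T ⊔ centralizerIn S T := fun x hx =>
    tb.map_mem hx hx le_sup_left
  have hb' := hb
  rw [groupFusionSystem_eq_ofSubgroup] at hb'
  obtain ⟨g, -, h2, h3⟩ := exists_coprime_cj_of_copOn hb' hmb cb
  have hm : ∀ x ∈ T ⊔ centralizerIn S T, cj g x ∈ T ⊔ centralizerIn S T := fun x hx => h3 hx ▸ hmb x hx
  have hle : T ⊔ centralizerIn S T ⊔ pCore p G ≤ S := sup_le hb.le hQ
  have e' : Set.EqOn f (cj g) T := fun x hx => (e hx).symm.trans (h3 (Subgroup.mem_sup_left hx))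
  have := WOk.climb S.isPGroup' hE.1 hfc le_rfl le_rfl (X := pCore p G)
    (fun x hx => ⟨hQ hx, normalizerIn_le_normalizer_sup_centralizerIn _ _
      ⟨hQ hx, sc_le_normalizer hT (hQ hx)⟩⟩)
    (mor_cj_group hle fun y hy => hle (cj_maps_sup hm (cj_mem_normal _ g) y hy)) hm (cj_mem_normal _ g)
    (copOn_cj h2 _) ⟨tb.congr h3, (hf.congr e').mono inf_le_right⟩
  exact (mor_cj_ofSubgroup (Subgroup.mem_sup_left (mem_Oup (this.mono le_sup_right) h2)) le_rfl
    fun x hx => e' hx ▸ hf.map_mem hx).congr e'.symm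

theorem eq_Oup_wOkSub_sup {H : Subgroup G} [H.Normal] (hH : SylIn p T H)
    (e : E = fusionSystemOfSubgroup H T hH.le) : H = Oup p (wOkSub p E) ⊔ T := by
  have hT := hE.2.2.2.1
  have := normal_pCore_inf hT
  have hHM : H ≤ wOkSub p E := fun g hg => ⟨fun x hx => hH.le_of_le_normalizer (C := pCore p G ⊓ H)
      inf_le_right (isPGroup_pCore.to_le inf_le_left) (le_top.trans Subgroup.le_normalizer_of_normal)
      ⟨Subgroup.mul_mem _ (Subgroup.inv_mem _ hx) (cj_mem_normal _ g x hx), by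
        have := H.mul_mem (cj_mem_normal H x⁻¹ g hg) (H.inv_mem hg)
        rwa [cj_apply, inv_inv, mul_assoc, mul_assoc, ← mul_assoc g] at this⟩,
    e ▸ mor_cj_ofSubgroup hg inf_le_right fun x hx => (cj_mem_normal _ g x hx).2⟩
  have h1 : H ≤ Oup p (wOkSub p E) ⊔ T := hH.Oup_sup.ge.trans (sup_le_sup_right (Oup_mono hHM) T)
  refine le_antisymm h1 fun g hg => ?_
  have hgM := sup_le (Oup_le _ _) (le_wOkSub hE) hg
  have h2 := hgM.2
  rw [e] at h2
  obtain ⟨-, -, h, hh, h3⟩ := mor_ofSubgroup_iff.1 h2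
  have h4 : h⁻¹ * g ∈ pCore p G := wOkSub_inf_centralizer_le hG hE
    ⟨Subgroup.mul_mem _ (Subgroup.inv_mem _ (hHM hh)) hgM, mem_centralizer_iff_cj.2 fun x hx => by
      rw [cj_mul, h3 hx, cj_inv_cj]⟩
  have h5 := hH.le ((eq_sylow_inf_Oup_wOkSub_sup hG hE).ge
    ⟨pCore_le_sylow S h4, Subgroup.mul_mem _ (Subgroup.inv_mem _ (h1 hh)) hg⟩)
  exact (H.mul_mem_cancel_left (H.inv_mem hh)).1 h5

omit hE in
/-- Normal subsystems of the fusion system of a group of characteristic `p` come from normal subgroups. -/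
theorem exists_normal_of_isNormalIn (hE : E.IsNormalIn (groupFusionSystem (S : Subgroup G)) p) :
    ∃ H : Subgroup G, H.Normal ∧ ∃ hH : SylIn p T H, E = fusionSystemOfSubgroup H T hH.le ∧
      ∀ H' : Subgroup G, H'.Normal → ∀ hH' : SylIn p T H', E = fusionSystemOfSubgroup H' T hH'.le →
        H' = H := by
  have := normal_Oup_wOkSub_sup hE.1
  have h1 := (sylIn_top S).inf_normal (C := Oup p (wOkSub p E) ⊔ T) le_top Subgroup.le_normalizer_of_normal
  rw [← eq_sylow_inf_Oup_wOkSub_sup hG hE.1] at h1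
  exact ⟨_, this, h1, FusionSystem_ext_mor fun P f =>
    ⟨fun h => h.of_subsystem (isSubsystemOf_ofSubgroup_wOkSub hG hE),
      fun h => h.of_subsystem (ofSubgroup_wOkSub_isSubsystemOf hG hE.1)⟩,
    fun H' _ hH' e => eq_Oup_wOkSub_sup hG hE.1 hH' e⟩

end CL.Fus
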